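import Mathlib

/-! # Quaternion relations inside a division ring -/

set_option autoImplicit false

namespace CfsgLib.DivRing65

variable {D : Type*} [DivisionRing D] [CharZero D]

/-- A field of coefficients over which `-1 = X² + Q Y²` cannot commute with a quaternion pair of
norms `1` and `Q` inside a division ring. -/
theorem no_split {i x X Y Q : D} (hi : i * i = -1) (hx0 : x ≠ 0) (hanti : x * i = -(i * x))
    (hx : x * x = -Q) (hXi : Commute X i) (hXx : Commute X x) (hYi : Commute Y i)
    (hYx : Commute Y x) (hXY : Commute X Y) (h : X * X + Q * (Y * Y) = -1) : False := by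
  set w := X * i + Y * x with hw
  have hQY : Q * (Y * Y) = Y * Y * Q := by
    have : Commute Q Y := by
      rw [show Q = -(x * x) by rw [hx, neg_neg]]
      exact ((hYx.mul_right hYx).neg_right).symm
    exact (this.mul_right this).eq
  have e1 : X * i * (X * i) = -(X * X) := by
    rw [hXi.symm.mul_mul_mul_comm, hi]; simp
  have e2 : Y * x * (Y * x) = -(Y * Y * Q) := by
    rw [hYx.symm.mul_mul_mul_comm, hx]; simp
  have e3 : X * i * (Y * x) = X * Y * (i * x) := hYi.symm.mul_mul_mul_comm _ _
  have e4 : Y * x * (X * i) = -(X * Y * (i * x)) := by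
    rw [hXx.symm.mul_mul_mul_comm, hanti, ← hXY.eq, mul_neg]
  have hww : w * w = 1 := by
    calc w * w = X * i * (X * i) + X * i * (Y * x) + (Y * x * (X * i) + Y * x * (Y * x)) := by
            rw [hw]; noncomm_ring
      _ = -(X * X + Y * Y * Q) := by rw [e1, e2, e3, e4]; abel
      _ = 1 := by rw [← hQY, h, neg_neg]
  rcases mul_self_eq_one_iff.1 hww with hwv | hwv
  all_goals
    have hwi : Commute w i := by rw [hwv]; first | exact Commute.one_left _ |
      exact (Commute.one_left _).neg_left
    have hwx : Commute w x := by rw [hwv]; first | exact Commute.one_left _ |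
      exact (Commute.one_left _).neg_left
    have hY : Y = 0 := by
      have hl : w * i = -X - Y * (i * x) := by
        rw [hw, add_mul, mul_assoc, hi, mul_assoc, hanti]; noncomm_ring
      have hr : i * w = -X + Y * (i * x) := by
        rw [hw, mul_add, ← mul_assoc, ← hXi.eq, mul_assoc, hi, ← mul_assoc i Y, ← hYi.eq, mul_assoc]
        noncomm_ring
      have h0 : (2 : D) * (Y * (i * x)) = 0 := by
        rw [two_mul]
        calc Y * (i * x) + Y * (i * x) = (-X + Y * (i * x)) - (-X - Y * (i * x)) := by abel
          _ = 0 := by rw [← hl, ← hr, hwi.eq, sub_self]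
      have hi0 : i ≠ 0 := fun hh => by rw [hh, mul_zero] at hi; exact neg_ne_zero.2 one_ne_zero hi.symm
      simpa [hi0, hx0] using h0
    have hwX : w = X * i := by rw [hw, hY, zero_mul, add_zero]
    have h0 : (2 : D) * (X * i * x) = 0 := by
      rw [two_mul]
      have : x * (X * i) = -(X * i * x) := by
        rw [← mul_assoc, ← hXx.eq, mul_assoc, hanti]; noncomm_ring
      rw [← hwX] at this ⊢
      rw [← hwx.eq] at this
      exact add_eq_zero_iff_eq_neg.2 this
    have hw0 : w ≠ 0 := by rw [hwv]; simp
    rw [← hwX] at h0
    simp [hw0, hx0] at h0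

end CfsgLib.DivRing65
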