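import Mathlib
import Cfsg.Agent.Frobenius.Zassenhaus.Product

/-! # The quaternion pair attached to an embedded `SL(2,5)` -/

set_option autoImplicit false

namespace CfsgLib.DivRing65

open CfsgLib.Frobenius.Zass

variable {D : Type*} [DivisionRing D]

/-- `[[0,-1],[1,0]]`. -/
def genI : SL25 := ⟨!![0, -1; 1, 0], by decide⟩

/-- `[[0,-1],[1,1]]`. -/
def genY : SL25 := ⟨!![0, -1; 1, 1], by decide⟩

theorem closure_gen : Subgroup.closure ({genI, genY} : Set SL25) = ⊤ := by
  set K := Subgroup.closure ({genI, genY} : Set SL25) with hK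
  have hI : genI ∈ K := Subgroup.subset_closure (Or.inl rfl)
  have hY : genY ∈ K := Subgroup.subset_closure (Or.inr rfl)
  have oI : orderOf genI = 4 := by
    rw [show (4 : ℕ) = 2 ^ 2 from rfl]
    haveI := Fact.mk Nat.prime_two
    exact orderOf_eq_prime_pow (by decide) (by decide)
  have oY : orderOf (genY ^ 2) = 3 := by
    haveI := Fact.mk Nat.prime_three
    exact orderOf_eq_prime (by decide) (by decide)
  have oZ : orderOf ((genI * genY) ^ 2) = 5 := by
    haveI := Fact.mk Nat.prime_five
    exact orderOf_eq_prime (by decide) (by decide)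
  have h4 := oI ▸ Subgroup.orderOf_dvd_natCard K hI
  have h3 := oY ▸ Subgroup.orderOf_dvd_natCard K (pow_mem hY 2)
  have h5 := oZ ▸ Subgroup.orderOf_dvd_natCard K (pow_mem (mul_mem hI hY) 2)
  have h60 : 60 ∣ Nat.card K := by
    have h12 : 12 ∣ Nat.card K := (by norm_num : Nat.Coprime 4 3).mul_dvd_of_dvd_of_dvd h4 h3
    exact (by norm_num : Nat.Coprime 12 5).mul_dvd_of_dvd_of_dvd h12 h5
  have hc := K.card_mul_index
  rw [card_sl25] at hc
  obtain ⟨k, hk⟩ := h60
  have hlt : K.index ≤ 2 := by
    rcases Nat.eq_zero_or_pos k with h | h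
    · subst h; rw [hk] at hc; norm_num at hc
    · nlinarith
  rcases (by omega : K.index = 0 ∨ K.index = 1 ∨ K.index = 2) with h | h | h
  · rw [h, mul_zero] at hc; norm_num at hc
  · exact Subgroup.index_eq_one.1 h
  · exfalso
    haveI := Subgroup.normal_of_index_eq_two h
    have hq : Nat.card (SL25 ⧸ K) = 2 := h
    haveI := Fact.mk Nat.prime_two
    haveI : IsCyclic (SL25 ⧸ K) := isCyclic_of_prime_card hq
    let _ : CommGroup (SL25 ⧸ K) := IsCyclic.commGroup
    have hle : commutator SL25 ≤ K := Subgroup.Normal.quotient_commutative_iff_commutator_le.1 inferInstance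
    rw [commutator_sl25, top_le_iff] at hle
    rw [hle, Subgroup.index_top] at h
    norm_num at h

variable (φ : SL25 →* D) (hφ : Function.Injective φ)

include hφ in
theorem map_neg_one' : φ (-1) = -1 := by
  have h : φ (-1) * φ (-1) = 1 := by
    rw [← map_mul, show (-1 : SL25) * (-1) = 1 by decide, map_one]
  refine (mul_self_eq_one_iff.1 h).resolve_left fun h1 => ?_
  exact absurd (hφ (h1.trans φ.map_one.symm)) (by decide)

theorem commute_of_commute_gen {t : D} (hi : Commute (φ genI) t) (hy : Commute (φ genY) t)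
    (s : SL25) : Commute (φ s) t := by
  have hs : s ∈ Subgroup.closure ({genI, genY} : Set SL25) := closure_gen ▸ Subgroup.mem_top s
  induction hs using Subgroup.closure_induction with
  | mem x hx => rcases hx with rfl | rfl <;> assumption
  | one => rw [map_one]; exact Commute.one_left _
  | mul x y _ _ hx hy => rw [map_mul]; exact hx.mul_left hy
  | inv x _ hx =>
    have h1 : φ x⁻¹ * φ x = 1 := by rw [← map_mul, inv_mul_cancel, map_one]
    rw [eq_inv_of_mul_eq_one_left h1]
    exact hx.inv_left₀

/-- The data produced by an embedding of `SL(2,5)`. -/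
structure QuatData (φ : SL25 →* D) where
  i : D
  j : D
  r : D
  i_mul_i : i * i = -1
  j_mul_j : j * j = -1
  j_mul_i : j * i = -(i * j)
  r_mul_r : r * r = 5
  i_comm : ∀ z : D, (∀ s, Commute (φ s) z) → Commute i z
  j_comm : ∀ z : D, (∀ s, Commute (φ s) z) → Commute j z
  r_comm : ∀ z : D, (∀ s, Commute (φ s) z) → Commute r z
  comm_r : ∀ s, Commute (φ s) r

include hφ in
theorem exists_quatData : Nonempty (QuatData φ) := by
  set i := φ genI with hi_def
  set y := φ genY with hy_def
  have hneg := map_neg_one' φ hφ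
  have ne_neg : ∀ s : SL25, s ≠ -1 → φ s + 1 ≠ 0 := fun s hs h =>
    hs (hφ (by rw [hneg]; exact eq_neg_of_add_eq_zero_left h))
  have hi : i * i = -1 := by rw [hi_def, ← map_mul, show genI * genI = -1 by decide, hneg]
  have hy3 : y * y * y = -1 := by
    rw [hy_def, ← map_mul, ← map_mul, show genY * genY * genY = -1 by decide, hneg]
  have hy : y * y = y - 1 := by
    have h : (y + 1) * (y * y - y + 1) = 0 := by
      calc (y + 1) * (y * y - y + 1) = y * y * y + 1 := by noncomm_ring
        _ = 0 := by rw [hy3, neg_add_cancel]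
    have := (mul_eq_zero.1 h).resolve_left (ne_neg _ (by decide))
    rw [← sub_eq_zero, show y * y - (y - 1) = y * y - y + 1 by abel, this]
  set g := i * y with hg
  have hg5 : g ^ 5 = -1 := by
    rw [hg, hi_def, hy_def, ← map_mul, ← map_pow, show (genI * genY) ^ 5 = -1 by decide, hneg]
  have hg1 : g + 1 ≠ 0 := by
    rw [hg, hi_def, hy_def, ← map_mul]; exact ne_neg _ (by decide)
  set t := i * y + y * i - i with ht
  have hti : t * i = i * y * i - y + 1 := by
    calc t * i = i * y * i + y * (i * i) - i * i := by rw [ht]; noncomm_ring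
      _ = i * y * i - y + 1 := by rw [hi]; noncomm_ring
  have hit : i * t = i * y * i - y + 1 := by
    calc i * t = i * i * y + i * y * i - i * i := by rw [ht]; noncomm_ring
      _ = i * y * i - y + 1 := by rw [hi]; noncomm_ring
  have cti : Commute i t := hit.trans hti.symm
  have cty : Commute y t := by
    show y * t = t * y
    calc y * t = y * i * y + y * y * i - y * i := by rw [ht]; noncomm_ring
      _ = y * i * y + i * (y * y) - i * y := by rw [hy]; noncomm_ring
      _ = t * y := by rw [ht]; noncomm_ring
  have htg : t * g = g * g + 1 := by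
    calc t * g = g * g + (y * (i * i) * y - i * i * y) := by rw [ht, hg]; noncomm_ring
      _ = g * g + 1 := by rw [hi, mul_neg, mul_one, neg_mul, neg_mul, one_mul, hy]; noncomm_ring
  have ctg : Commute t g := (cti.symm.mul_right cty.symm)
  have hg4 : g ^ 4 - g ^ 3 + g ^ 2 - g + 1 = 0 := by
    have h : (g + 1) * (g ^ 4 - g ^ 3 + g ^ 2 - g + 1) = 0 := by
      calc (g + 1) * (g ^ 4 - g ^ 3 + g ^ 2 - g + 1) = g ^ 5 + 1 := by noncomm_ring
        _ = 0 := by rw [hg5, neg_add_cancel]
    exact (mul_eq_zero.1 h).resolve_left hg1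
  have htt : t * t = t + 1 := by
    have e2 : t * t * (g * g) = (g * g + 1) * (g * g + 1) := by
      rw [← htg]; exact (ctg.symm.mul_mul_mul_comm _ _).symm
    have e1 : t * (g * g) = (g * g + 1) * g := by rw [← mul_assoc, htg]
    have h : (t * t - t - 1) * (g * g) = 0 := by
      rw [← hg4, sub_mul, sub_mul, e2, e1, one_mul]
      noncomm_ring
    have hg0 : g * g ≠ 0 := by
      intro hh
      have : g ^ 5 = 0 := by rw [show g ^ 5 = g * g * g ^ 3 by noncomm_ring, hh, zero_mul]
      rw [hg5] at this
      exact neg_ne_zero.2 one_ne_zero this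
    have := (mul_eq_zero.1 h).resolve_right hg0
    rwa [sub_sub, sub_eq_zero] at this
  set m := i * y - y * i with hm
  have him : m * i = -(i * m) := by
    calc m * i = i * y * i - y * (i * i) := by rw [hm]; noncomm_ring
      _ = -(i * i * y - i * y * i) := by rw [hi]; noncomm_ring
      _ = -(i * m) := by rw [hm]; noncomm_ring
  have hiyi : i * y * i - y = t * i - 1 := by rw [hti]; abel
  have hmm : m * m = t - (1 + 1) := by
    have hsum : i * y + y * i = t + i := by rw [ht]; abel
    calc m * m = (i * y + y * i) * (i * y + y * i)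
          - (i * (y * y) * i + y * (i * i) * y + (i * (y * y) * i + y * (i * i) * y)) := by
            rw [hm]; noncomm_ring
      _ = (t + i) * (t + i) - (i * y * i - i * i - y * y + (i * y * i - i * i - y * y)) := by
          rw [hsum, hi]
          have e : i * (y * y) * i = i * y * i - i * i := by rw [hy]; noncomm_ring
          rw [e, hi]; noncomm_ring
      _ = t * t + (t * i + t * i) + i * i
            - ((i * y * i - y) + (1 + 1) + ((i * y * i - y) + (1 + 1))) := by
          rw [add_mul, mul_add, mul_add, cti.eq, hi, hy]; noncomm_ring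
      _ = t - (1 + 1) := by rw [hiyi, hi, htt]; noncomm_ring
  have ctm : Commute m t := (cti.mul_left cty).sub_left (cty.mul_left cti)
  have hjj : m * t * (m * t) = -1 := by
    rw [ctm.symm.mul_mul_mul_comm, hmm, htt, sub_mul, mul_add, htt]; noncomm_ring
  have hji : m * t * i = -(i * (m * t)) := by
    rw [mul_assoc, ← cti.eq, ← mul_assoc, him]; noncomm_ring
  have hr : (2 * t - 1) * (2 * t - 1) = (5 : D) := by
    rw [show (5 : D) = 1 + 1 + 1 + 1 + 1 by norm_num, two_mul]
    calc (t + t - 1) * (t + t - 1) = (t * t - t) + (t * t - t) + (t * t - t) + (t * t - t) + 1 := by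
          noncomm_ring
      _ = 1 + 1 + 1 + 1 + 1 := by rw [htt]; noncomm_ring
  have c2 : ∀ z : D, Commute (2 : D) z := fun z => (Nat.cast_commute 2 z : _)
  have czt : ∀ z : D, (∀ s, Commute (φ s) z) → Commute t z := fun z hz =>
    (((hz genI).mul_left (hz genY)).add_left ((hz genY).mul_left (hz genI))).sub_left (hz genI)
  refine ⟨⟨i, m * t, 2 * t - 1, hi, hjj, hji, hr, fun z hz => hz _, fun z hz => ?_, fun z hz => ?_,
    fun s => ?_⟩⟩
  · exact (((hz genI).mul_left (hz genY)).sub_left ((hz genY).mul_left (hz genI))).mul_left (czt z hz)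
  · exact ((c2 z).mul_left (czt z hz)).sub_left (Commute.one_left z)
  · exact ((c2 _).symm.mul_right (commute_of_commute_gen φ cti cty s)).sub_right (Commute.one_right _)

end CfsgLib.DivRing65
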