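import Mathlib

/-! # `-1` as a norm in cyclotomic polynomial congruences -/

set_option autoImplicit false

namespace CfsgLib.DivRing65

open Polynomial
open scoped Classical

section Gauss

variable (q : ℕ) [Fact q.Prime]

/-- Nonzero squares modulo `q`. -/
noncomputable def qres : Finset (ZMod q) :=
  Finset.univ.filter fun a => quadraticChar (ZMod q) a = 1

variable {q}

theorem mem_qres {a : ZMod q} : a ∈ qres q ↔ quadraticChar (ZMod q) a = 1 := by simp [qres]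

theorem qres_pos : 0 < (qres q).card :=
  Finset.card_pos.2 ⟨1, mem_qres.2 (map_one _)⟩

theorem qres_ne_zero {a : ZMod q} (h : a ∈ qres q) : a ≠ 0 := by
  rintro rfl; rw [mem_qres, quadraticChar_zero] at h; exact zero_ne_one h

theorem mul_mem_qres {a b : ZMod q} (hb : b ∈ qres q) : a * b ∈ qres q ↔ a ∈ qres q := by
  rw [mem_qres, mem_qres, map_mul, mem_qres.1 hb, mul_one]

theorem cyclotomic_eq_prod (γ : ℂ) (hγ : IsPrimitiveRoot γ q) :
    cyclotomic q ℂ = ∏ a ∈ Finset.univ.erase (0 : ZMod q), (X - C (γ ^ a.val)) := by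
  have hq := (Fact.out : q.Prime)
  rw [cyclotomic_eq_prod_X_sub_primitiveRoots hγ]
  symm
  refine Finset.prod_nbij (fun a => γ ^ a.val) (fun a ha => ?_) (fun a _ b _ h => ?_) (fun μ hμ => ?_)
    (fun _ _ => rfl)
  · rw [mem_primitiveRoots hq.pos]
    refine hγ.pow_of_coprime _ (Nat.Coprime.symm (hq.coprime_iff_not_dvd.2 fun h => ?_))
    have h1 := ZMod.val_lt a
    have h2 : a.val = 0 := Nat.eq_zero_of_dvd_of_lt h h1
    exact (Finset.mem_erase.1 ha).1 ((ZMod.val_eq_zero a).1 h2)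
  · exact ZMod.val_injective q (hγ.pow_inj (ZMod.val_lt a) (ZMod.val_lt b) h)
  · rw [Finset.mem_coe, mem_primitiveRoots hq.pos] at hμ
    obtain ⟨k, hk, rfl⟩ := hγ.eq_pow_of_pow_eq_one hμ.pow_eq_one
    refine ⟨(k : ZMod q), ?_, by simp [ZMod.val_natCast, Nat.mod_eq_of_lt hk]⟩
    rw [Finset.mem_coe, Finset.mem_erase]
    refine ⟨fun h => ?_, Finset.mem_univ _⟩
    have hk0 : k = 0 := Nat.eq_zero_of_dvd_of_lt ((ZMod.natCast_eq_zero_iff _ _).1 h) hk
    rw [hk0, pow_zero] at hμ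
    exact hq.ne_one (hμ.unique IsPrimitiveRoot.one)

/-- For a prime `q ≡ 3 mod 4` the `q`-th cyclotomic polynomial has the shape `A² + q B²`. -/
theorem cyclotomic_eq_form (h4 : q % 4 = 3) :
    ∃ A B : ℚ[X], cyclotomic q ℚ = A * A + C (q : ℚ) * (B * B) := by
  have hq := (Fact.out : q.Prime)
  have hq2 : q ≠ 2 := by omega
  have hchar : ringChar (ZMod q) ≠ 2 := by rwa [ZMod.ringChar_zmod_n]
  obtain ⟨γ, hγ⟩ : ∃ γ : ℂ, IsPrimitiveRoot γ q := ⟨_, Complex.isPrimitiveRoot_exp q hq.ne_zero⟩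
  set ψ := AddChar.zmodChar q hγ.pow_eq_one with hψdef
  have hψ : ψ.IsPrimitive := AddChar.zmodChar_primitive_of_primitive_root q hγ
  set χ0 := quadraticChar (ZMod q) with hχ0
  set χ := χ0.ringHomComp (Int.castRingHom ℂ) with hχdef
  have hχv : ∀ a, χ a = ((χ0 a : ℤ) : ℂ) := fun a => rfl
  have hneg : χ0 (-1) = -1 := by
    rw [hχ0, quadraticChar_neg_one_iff_not_isSquare, ZMod.exists_sq_eq_neg_one_iff]; omega
  have hχq : χ.IsQuadratic := (quadraticChar_isQuadratic _).comp _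
  have hχ1 : χ ≠ 1 := by
    intro h
    have := congrArg (fun f : MulChar (ZMod q) ℂ => f (-1)) h
    rw [hχv, hneg, MulChar.one_apply (IsUnit.neg isUnit_one)] at this
    norm_num at this
  set G := gaussSum χ ψ with hG
  have hG2 : G * G = -(q : ℂ) := by
    rw [← pow_two, hG, gaussSum_sq hχ1 hχq hψ, hχv, hneg, ZMod.card]; push_cast; ring
  -- sums over the squares
  have hsum : ∀ n : ZMod q, 2 * ∑ s ∈ qres q, ψ (s * n) =
      (((if n = 0 then (q : ℚ) - 1 else -1) : ℚ) : ℂ) + ((χ0 n : ℤ) : ℂ) * G := by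
    intro n
    have h1 : ∀ a : ZMod q, (if a ∈ qres q then 2 * ψ (a * n) else 0) =
        ψ (a * n) + χ a * ψ (a * n) - (if a = 0 then 1 else 0) := by
      intro a
      rw [hχv]
      by_cases ha : a = 0
      · subst ha; simp [mem_qres, χ0]
      · rcases quadraticChar_dichotomy ha with h | h
        · rw [← hχ0] at h; rw [if_pos (mem_qres.2 h), h, if_neg ha]; push_cast; ring
        · rw [← hχ0] at h
          rw [if_neg (by rw [mem_qres, ← hχ0, h]; norm_num), h, if_neg ha]; push_cast; ring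
    have h3 : ∑ a, χ a * ψ (a * n) = ((χ0 n : ℤ) : ℂ) * G := by
      by_cases hn : n = 0
      · subst hn
        simp only [mul_zero, AddChar.map_zero_eq_one, mul_one, hχv, χ0, quadraticChar_zero,
          Int.cast_zero, zero_mul]
        exact_mod_cast quadraticChar_sum_zero hchar
      · obtain ⟨u, rfl⟩ := isUnit_iff_ne_zero.2 hn
        have h := gaussSum_mulShift χ ψ u
        have hu : χ (u : ZMod q) * χ u = 1 := by
          rw [hχv, ← Int.cast_mul, ← map_mul, hχ0, ← pow_two, quadraticChar_sq_one' hn, Int.cast_one]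
        rw [← hχv, hG, ← h, ← mul_assoc, hu, one_mul, gaussSum]
        simp [AddChar.mulShift_apply, mul_comm]
    rw [Finset.mul_sum, ← Finset.sum_ite_mem_eq, Finset.sum_congr rfl fun a _ => h1 a,
      Finset.sum_sub_distrib, Finset.sum_add_distrib, AddChar.sum_mulShift n hψ, h3,
      Finset.sum_ite_eq' Finset.univ (0 : ZMod q) fun _ => (1 : ℂ), if_pos (Finset.mem_univ _),
      ZMod.card]
    split_ifs <;> push_cast <;> ring
  -- the period polynomial
  let F : ℚ[X][X] := ∏ r ∈ qres q, (C X - X ^ r.val)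
  let ι : ℚ[X] →+* ℂ[X] := mapRingHom (algebraMap ℚ ℂ)
  let E : ZMod q → ℚ[X][X] →+* ℂ[X] := fun s => eval₂RingHom ι (C (ψ s))
  have hpw : ∀ (s : ZMod q) (k : ℕ), C (ψ s) ^ k = C (ψ (s * (k : ZMod q))) := by
    intro s k
    rw [← C_pow, ← AddChar.map_nsmul_eq_pow, nsmul_eq_mul, mul_comm]
  have hEF : ∀ s, E s F = ∏ r ∈ qres q, (X - C (ψ (s * r))) := by
    intro s
    simp only [F, map_prod, map_sub, map_pow]
    refine Finset.prod_congr rfl fun r _ => ?_
    simp [E, ι, hpw]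
  have hre : ∀ (u : ZMod q), ∀ s ∈ qres q, E (u * s) F = E u F := by
    intro u s hs
    rw [hEF, hEF]
    refine Finset.prod_nbij (fun r => s * r) (fun r hr => ?_) (fun a _ b _ h => ?_) (fun r hr => ?_)
      (fun r _ => by rw [mul_assoc])
    · exact (mul_mem_qres hr).2 hs
    · exact mul_left_cancel₀ (qres_ne_zero hs) h
    · refine ⟨s⁻¹ * r, ?_, by simp [← mul_assoc, qres_ne_zero hs]⟩
      rw [Finset.mem_coe] at hr ⊢
      rw [← mul_mem_qres (a := s⁻¹ * r) hs, mul_comm, ← mul_assoc,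
        mul_inv_cancel₀ (qres_ne_zero hs), one_mul]
      exact hr
  let A' : ℚ[X] := ∑ n ∈ F.support, F.coeff n * C (if (n : ZMod q) = 0 then (q : ℚ) - 1 else -1)
  let B' : ℚ[X] := ∑ n ∈ F.support, F.coeff n * C ((χ0 (n : ZMod q) : ℤ) : ℚ)
  have hlin : ∀ u : ZMod q, u ≠ 0 → (2 * (qres q).card : ℕ) • E u F =
      ι A' + C ((χ0 u : ℤ) : ℂ) * C G * ι B' := by
    intro u hu
    rw [mul_smul, two_nsmul, ← Finset.sum_const, ← two_mul]
    rw [← Finset.sum_congr rfl (hre u)]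
    simp only [E, coe_eval₂RingHom, eval₂_eq_sum, Polynomial.sum, hpw]
    rw [Finset.sum_comm, Finset.mul_sum]
    simp only [A', B', map_sum, Finset.mul_sum, ← Finset.sum_add_distrib, map_mul]
    refine Finset.sum_congr rfl fun n _ => ?_
    rw [← Finset.mul_sum, ← Finset.mul_sum, ← map_sum, mul_left_comm, ← map_ofNat C 2, ← C_mul]
    have e : ∑ s ∈ qres q, ψ (u * s * (n : ZMod q)) = ∑ s ∈ qres q, ψ (s * (u * (n : ZMod q))) :=
      Finset.sum_congr rfl fun s _ => congrArg ψ (by ring)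
    have e0 : (u * (n : ZMod q) = 0) = ((n : ZMod q) = 0) := by simp [hu]
    rw [e, hsum]
    simp only [e0, map_mul, C_add, C_mul, Int.cast_mul]
    simp [ι]
    ring
  have hP := hlin 1 one_ne_zero
  have hM := hlin (-1) (neg_ne_zero.2 one_ne_zero)
  rw [map_one, Int.cast_one, C_1, one_mul] at hP
  rw [hneg, Int.cast_neg, Int.cast_one, C_neg, C_1] at hM
  have hprod : E 1 F * E (-1) F = ι (cyclotomic q ℚ) := by
    have hc : ι (cyclotomic q ℚ) = cyclotomic q ℂ := by simp [ι, map_cyclotomic]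
    rw [hc, cyclotomic_eq_prod γ hγ, hEF, hEF,
      ← Finset.prod_filter_mul_prod_filter_not (Finset.univ.erase (0 : ZMod q))
        (fun a => χ0 a = 1) (fun a => X - C (γ ^ a.val))]
    congr 1
    · refine Finset.prod_nbij id (fun a ha => ?_) (fun a _ b _ h => h) (fun a ha => ?_)
        (fun a _ => by simp [hψdef, AddChar.zmodChar_apply])
      · simp [qres_ne_zero ha, hχ0 ▸ mem_qres.1 ha]
      · exact ⟨a, mem_qres.2 (Finset.mem_filter.1 ha).2, rfl⟩
    · refine Finset.prod_nbij (fun a => -a) (fun a ha => ?_) (fun a _ b _ h => neg_inj.1 h)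
        (fun a ha => ?_) (fun a _ => by simp [hψdef, AddChar.zmodChar_apply])
      · rw [Finset.mem_filter, Finset.mem_erase]
        refine ⟨⟨neg_ne_zero.2 (qres_ne_zero ha), Finset.mem_univ _⟩, ?_⟩
        rw [← neg_one_mul, map_mul, hneg, hχ0, mem_qres.1 ha]; norm_num
      · obtain ⟨ha0, ha1⟩ := Finset.mem_filter.1 ha
        refine ⟨-a, mem_qres.2 ?_, neg_neg a⟩
        rw [← hχ0, ← neg_one_mul, map_mul, hneg]
        rcases quadraticChar_dichotomy (Finset.mem_erase.1 ha0).1 with h | h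
        · exact absurd (hχ0 ▸ h) ha1
        · rw [hχ0, h]; norm_num
  set c := 2 * (qres q).card with hc
  have hc0 : (c : ℚ) ≠ 0 := by
    have := qres_pos (q := q)
    exact_mod_cast (by omega : c ≠ 0)
  refine ⟨C (1 / (c : ℚ)) * A', C (1 / (c : ℚ)) * B', ?_⟩
  apply map_injective (algebraMap ℚ ℂ) (algebraMap ℚ ℂ).injective
  show ι _ = ι _
  have hk : ι (C (1 / (c : ℚ))) * (c : ℂ[X]) = 1 := by
    rw [← map_natCast ι c, ← map_mul, ← map_natCast C, ← C_mul, one_div,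
      inv_mul_cancel₀ hc0, C_1, map_one]
  have hq' : ι (C (q : ℚ)) = -(C G * C G) := by
    rw [← C_mul, hG2, C_neg, neg_neg]; simp [ι]
  rw [nsmul_eq_mul] at hP hM
  rw [map_add, map_mul, map_mul, map_mul, map_mul, map_mul, ← hprod, hq']
  calc E 1 F * E (-1) F = ι (C (1 / (c : ℚ))) * ι (C (1 / (c : ℚ))) *
        (((c : ℂ[X]) * E 1 F) * ((c : ℂ[X]) * E (-1) F)) := by
        rw [show ι (C (1 / (c : ℚ))) * ι (C (1 / (c : ℚ))) *
            (((c : ℂ[X]) * E 1 F) * ((c : ℂ[X]) * E (-1) F)) =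
            (ι (C (1 / (c : ℚ))) * (c : ℂ[X])) * (ι (C (1 / (c : ℚ))) * (c : ℂ[X])) *
              (E 1 F * E (-1) F) by ring, hk, one_mul, one_mul]
    _ = _ := by rw [hP, hM]; ring

end Gauss

/-- The polynomials of the form `A² + c B²`. -/
def IsForm (c : ℚ) (f : ℚ[X]) : Prop := ∃ A B : ℚ[X], f = A * A + C c * (B * B)

theorem IsForm.mul {c : ℚ} {f g : ℚ[X]} : IsForm c f → IsForm c g → IsForm c (f * g) := by
  rintro ⟨a, b, rfl⟩ ⟨a', b', rfl⟩
  exact ⟨a * a' - C c * (b * b'), a * b' + b * a', by ring⟩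

theorem exists_prime_residue {p : ℕ} (hp : p.Prime) (hp2 : p ≠ 2) (hp5 : p ≠ 5) :
    ∃ q : ℕ, q.Prime ∧ q % 20 = 3 ∧ 5 < q ∧ p ∣ q ^ (p / 2) + 1 := by
  have := Fact.mk hp
  obtain ⟨n, hn⟩ := FiniteField.exists_nonsquare (F := ZMod p) (by rwa [ZMod.ringChar_zmod_n])
  have hn0 : n ≠ 0 := fun h => hn (h ▸ IsSquare.zero)
  have hco : (20).Coprime p := by
    rw [show 20 = 2 ^ 2 * 5 from rfl]
    exact Nat.Coprime.mul_left ((Nat.coprime_primes Nat.prime_two hp).2 hp2.symm |>.pow_left 2)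
      ((Nat.coprime_primes Nat.prime_five hp).2 hp5.symm)
  obtain ⟨a, ha20, hap⟩ := Nat.chineseRemainder hco 3 n.val
  have hac : a.Coprime (20 * p) := by
    refine Nat.Coprime.mul_right ?_ ?_
    · rw [Nat.coprime_iff_gcd_eq_one, ha20.gcd_eq]; rfl
    · refine (hp.coprime_iff_not_dvd.2 fun h => ?_).symm
      have h1 : n.val % p = 0 := hap ▸ Nat.mod_eq_zero_of_dvd h
      rw [Nat.mod_eq_of_lt (ZMod.val_lt n), ZMod.val_eq_zero] at h1
      exact hn0 h1
  obtain ⟨q, hq5, hq, hqa⟩ :=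
    Nat.forall_exists_prime_gt_and_modEq 5 (q := 20 * p) (by simp [hp.ne_zero]) hac
  refine ⟨q, hq, ?_, hq5, ?_⟩
  · exact ((hqa.of_mul_right p).trans ha20 : q ≡ 3 [MOD 20])
  · have hqn : (q : ZMod p) = n := by
      rw [(ZMod.natCast_eq_natCast_iff _ _ _).2 ((hqa.of_mul_left 20).trans hap),
        ZMod.natCast_zmod_val]
    rw [← ZMod.natCast_eq_zero_iff, Nat.cast_add, Nat.cast_pow, hqn, Nat.cast_one]
    rcases ZMod.pow_div_two_eq_neg_one_or_one p hn0 with h | h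
    · exact absurd ((ZMod.euler_criterion p hn0).2 h) hn
    · rw [h, neg_add_cancel]

theorem not_isSquare_three : ¬ IsSquare (3 : ZMod 5) := by decide

theorem exists_sq_add_five_sq {q : ℕ} (hq : q.Prime) (h20 : q % 20 = 3) (h5 : 5 < q) :
    ∃ x y : ℤ, x ^ 2 + 5 * y ^ 2 = 2 * q := by
  have := Fact.mk hq
  have := Fact.mk Nat.prime_five
  have hq2 : q ≠ 2 := by omega
  obtain ⟨s, hs⟩ : IsSquare (-5 : ZMod q) := by
    have h1 : ¬ IsSquare (-1 : ZMod q) := by rw [ZMod.exists_sq_eq_neg_one_iff]; omega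
    have h2 : ¬ IsSquare (5 : ZMod q) := by
      have h := ZMod.exists_sq_eq_prime_iff_of_mod_four_eq_one (p := 5) (q := q) (by rfl) hq2
      rw [show ((q : ℕ) : ZMod 5) = 3 by
        rw [← Nat.mod_add_div q 5, Nat.cast_add, Nat.cast_mul, show q % 5 = 3 by omega,
          ZMod.natCast_self, zero_mul, add_zero]; rfl] at h
      rw [show (5 : ZMod q) = ((5 : ℕ) : ZMod q) by norm_num, ← h]
      exact not_isSquare_three
    rw [← neg_one_mul]
    rw [← quadraticChar_neg_one_iff_not_isSquare] at h1 h2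
    refine (quadraticChar_one_iff_isSquare (mul_ne_zero (neg_ne_zero.2 one_ne_zero) ?_)).1
      (by rw [map_mul, h1, h2]; norm_num)
    intro h0
    rw [h0, quadraticChar_zero] at h2
    norm_num at h2
  set m := Nat.sqrt q with hm
  have hm1 : q < (m + 1) * (m + 1) := Nat.lt_succ_sqrt q
  have hm2 : m * m < q := lt_of_le_of_ne (Nat.sqrt_le q) fun h => by
    have := hq.eq_one_or_self_of_dvd m ⟨m, h.symm⟩
    rcases this with h' | h' <;> rw [h'] at h <;> nlinarith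
  obtain ⟨u, v, huv, he⟩ := Fintype.exists_ne_map_eq_of_card_lt
    (fun u : Fin (m + 1) × Fin (m + 1) => ((u.1 : ℕ) : ZMod q) + s * ((u.2 : ℕ) : ZMod q))
    (by simpa using hm1)
  set x : ℤ := (u.1 : ℕ) - (v.1 : ℕ) with hx
  set y : ℤ := (u.2 : ℕ) - (v.2 : ℕ) with hy
  have hdvd : (q : ℤ) ∣ x ^ 2 + 5 * y ^ 2 := by
    rw [← ZMod.intCast_zmod_eq_zero_iff_dvd]
    have hxy : (x : ZMod q) = -s * (y : ZMod q) := by
      rw [hx, hy]; push_cast; linear_combination he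
    push_cast
    rw [hxy]
    linear_combination (y : ZMod q) ^ 2 * (-1) * hs
  obtain ⟨k, hk⟩ := hdvd
  clear_value x y
  have hu1 := u.1.isLt
  have hu2 := u.2.isLt
  have hv1 := v.1.isLt
  have hv2 := v.2.isLt
  have hxb : x * x ≤ m * m := by
    rw [← abs_le_iff_mul_self_le]; simp only [Nat.abs_cast]; rw [hx, abs_le]; omega
  have hyb : y * y ≤ m * m := by
    rw [← abs_le_iff_mul_self_le]; simp only [Nat.abs_cast]; rw [hy, abs_le]; omega
  have hpos : 0 < x ^ 2 + 5 * y ^ 2 := by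
    rcases eq_or_ne x 0 with h | h
    · have : y ≠ 0 := fun h' => huv (Prod.ext (Fin.ext (by omega)) (Fin.ext (by omega)))
      positivity
    · positivity
  have hk1 : 0 < k := by nlinarith
  have hk6 : k < 6 := by
    have : (m : ℤ) * m < q := by exact_mod_cast hm2
    nlinarith
  have hmod : ∀ a b : ℤ, (a ^ 2 + 5 * b ^ 2) % 4 ≠ 3 := by
    intro a b h
    have : ∀ a b : ZMod 4, a ^ 2 + 5 * b ^ 2 ≠ 3 := by decide
    refine this a b ?_
    have h' : ((a ^ 2 + 5 * b ^ 2 : ℤ) : ZMod 4) = ((3 : ℤ) : ZMod 4) :=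
      (ZMod.intCast_eq_intCast_iff' _ _ _).2 h
    push_cast at h'
    exact h'
  have hq4 : (q : ℤ) % 4 = 3 := by omega
  interval_cases k
  · exact absurd (by rw [hk, mul_one]; exact hq4) (hmod x y)
  · exact ⟨x, y, by rw [hk]; ring⟩
  · -- `k = 3`
    have h3 : Prime (3 : ℤ) := Int.prime_three
    have hd : (3 : ℤ) ∣ (x - y) * (x + y) := ⟨(q : ℤ) - 2 * y * y, by linear_combination hk⟩
    rcases h3.dvd_or_dvd hd with ⟨d, hd⟩ | ⟨d, hd⟩
    · refine ⟨2 * y + d, d, ?_⟩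
      have : 9 * ((2 * y + d) ^ 2 + 5 * d ^ 2) = 9 * (2 * (q : ℤ)) := by
        have e : x = y + 3 * d := by linarith
        subst e
        linear_combination 6 * hk
      linarith
    · refine ⟨-2 * y + d, d, ?_⟩
      have : 9 * ((-2 * y + d) ^ 2 + 5 * d ^ 2) = 9 * (2 * (q : ℤ)) := by
        have e : x = -y + 3 * d := by linarith
        subst e
        linear_combination 6 * hk
      linarith
  · -- `k = 4`
    have h : Even x ∧ Even y := by
      have : ∀ a b : ZMod 4, a ^ 2 + 5 * b ^ 2 = 0 → 2 * a = 0 ∧ 2 * b = 0 := by decide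
      obtain ⟨ha, hb⟩ := this x y (by
        have h' := congrArg (fun z : ℤ => (z : ZMod 4)) hk
        push_cast at h'
        rw [h', show (4 : ZMod 4) = 0 from rfl, mul_zero])
      constructor <;> rw [even_iff_two_dvd]
      · have h4 : ((4 : ℕ) : ℤ) ∣ 2 * x :=
          (ZMod.intCast_zmod_eq_zero_iff_dvd _ 4).1 (by push_cast; exact ha)
        omega
      · have h4 : ((4 : ℕ) : ℤ) ∣ 2 * y :=
          (ZMod.intCast_zmod_eq_zero_iff_dvd _ 4).1 (by push_cast; exact hb)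
        omega
    obtain ⟨⟨a, rfl⟩, b, rfl⟩ := h
    exact absurd (by rw [show a ^ 2 + 5 * b ^ 2 = (q : ℤ) by linarith]; exact hq4) (hmod a b)
  · -- `k = 5`
    have h5' : (5 : ℤ) ∣ x := (Int.prime_iff_natAbs_prime.2 (by norm_num) : Prime (5 : ℤ)).dvd_of_dvd_pow
      (⟨(q : ℤ) - y ^ 2, by linear_combination hk⟩ : (5 : ℤ) ∣ x ^ 2)
    obtain ⟨a, rfl⟩ := h5'
    exact absurd (by rw [show y ^ 2 + 5 * a ^ 2 = (q : ℤ) by linarith]; exact hq4) (hmod y a)

/-- `-1 = X² + Q Y²` modulo the `p`-th cyclotomic polynomial. -/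
theorem exists_split {p : ℕ} (hp : p.Prime) (hp2 : p ≠ 2) (hp5 : p ≠ 5) :
    ∃ (x y : ℤ) (A B : ℚ[X]), x ^ 2 + 5 * y ^ 2 ≠ 0 ∧
      cyclotomic p ℚ ∣ 1 + (A * A + C ((2 * (x ^ 2 + 5 * y ^ 2) : ℤ) : ℚ) * (B * B)) := by
  obtain ⟨q, hq, h20, h5, hdiv⟩ := exists_prime_residue hp hp2 hp5
  obtain ⟨x, y, hxy⟩ := exists_sq_add_five_sq hq h20 h5
  have := Fact.mk hq
  obtain ⟨A0, B0, hAB⟩ := cyclotomic_eq_form (q := q) (by omega)
  have hform : ∀ t : ℕ, ∃ f, IsForm (q : ℚ) f ∧ f * (X - 1) = X ^ (q ^ t) - 1 := by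
    intro t
    induction t with
    | zero => exact ⟨1, ⟨1, 0, by simp⟩, by simp⟩
    | succ t ih =>
      obtain ⟨f, hf, he⟩ := ih
      refine ⟨(cyclotomic q ℚ).comp (X ^ q ^ t) * f, IsForm.mul ⟨A0.comp (X ^ q ^ t),
        B0.comp (X ^ q ^ t), by rw [hAB]; simp⟩ hf, ?_⟩
      rw [mul_assoc, he]
      have h := congrArg (fun g : ℚ[X] => g.comp (X ^ q ^ t)) (cyclotomic_prime_mul_X_sub_one ℚ q)
      simp only [mul_comp, sub_comp, X_comp, pow_comp, one_comp] at h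
      rw [h, ← pow_mul, ← pow_succ]
  obtain ⟨f, ⟨a, b, rfl⟩, hf⟩ := hform (p / 2)
  obtain ⟨m, hm⟩ := hdiv
  have := Fact.mk hp
  have hirr : Irreducible (cyclotomic p ℚ) := cyclotomic.irreducible_rat hp.pos
  have hpm : cyclotomic p ℚ ∣ X ^ (p * m) - 1 := by
    have h1 : cyclotomic p ℚ ∣ X ^ p - 1 := cyclotomic.dvd_X_pow_sub_one p ℚ
    rw [pow_mul]
    exact h1.trans (sub_one_dvd_pow_sub_one _ m)
  have hd : cyclotomic p ℚ ∣ (X - 1) * (X * (a * a + C (q : ℚ) * (b * b)) + 1) := by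
    have : (X - 1 : ℚ[X]) * (X * (a * a + C (q : ℚ) * (b * b)) + 1) = X ^ (p * m) - 1 := by
      rw [← hm, pow_succ]
      linear_combination X * hf
    rw [this]; exact hpm
  have hd1 : cyclotomic p ℚ ∣ X * (a * a + C (q : ℚ) * (b * b)) + 1 := by
    refine (hirr.prime.dvd_or_dvd hd).resolve_left fun h => ?_
    have := natDegree_le_of_dvd h (X_sub_C_ne_zero (1 : ℚ))
    rw [natDegree_cyclotomic, Nat.totient_prime hp, show (X - 1 : ℚ[X]) = X - C 1 by rw [C_1],
      natDegree_X_sub_C] at this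
    have := hp.two_le
    omega
  obtain ⟨k, hk⟩ : ∃ k, p + 1 = 2 * k := ⟨(p + 1) / 2, by
    have := (hp.eq_two_or_odd).resolve_left hp2; omega⟩
  refine ⟨x, y, X ^ k * a, C (2⁻¹ : ℚ) * (X ^ k * b), by rw [hxy]; omega, ?_⟩
  have e : (1 : ℚ[X]) + (X ^ k * a * (X ^ k * a) + C ((2 * (x ^ 2 + 5 * y ^ 2) : ℤ) : ℚ) *
      (C (2⁻¹ : ℚ) * (X ^ k * b) * (C (2⁻¹ : ℚ) * (X ^ k * b)))) =
      (X * (a * a + C (q : ℚ) * (b * b)) + 1) + X * (a * a + C (q : ℚ) * (b * b)) * (X ^ p - 1) := by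
    have h2 : (C ((2 * (x ^ 2 + 5 * y ^ 2) : ℤ) : ℚ) * C (2⁻¹ : ℚ) * C (2⁻¹ : ℚ) : ℚ[X]) = C (q : ℚ) := by
      rw [← C_mul, ← C_mul, hxy]; congr 1; push_cast; ring
    have hpk : (X : ℚ[X]) ^ k * X ^ k = X * X ^ p := by
      rw [← pow_add, ← two_mul, ← hk, pow_succ']
    linear_combination (X ^ k * X ^ k * (b * b)) * h2 + (a * a + C (q : ℚ) * (b * b)) * hpk
  rw [e]
  exact dvd_add hd1 (Dvd.dvd.mul_left (cyclotomic.dvd_X_pow_sub_one p ℚ) _)

end CfsgLib.DivRing65
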