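import Mathlib
import Cfsg.Agent.DivRing65.Basic
import Cfsg.Agent.DivRing65.Icosa
import Cfsg.Agent.DivRing65.Split

/-! # Finite nonsolvable subgroups of division rings -/

set_option autoImplicit false

namespace CfsgLib.DivRing65

open Polynomial
open CfsgLib.Frobenius.Zass

variable {D : Type*} [DivisionRing D]

section Prime

variable [CharZero D] {φ : SL25 →* D}

theorem commute_aeval {a x : D} (h : Commute a x) (f : ℚ[X]) : Commute a (aeval x f) := by
  induction f using Polynomial.induction_on' with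
  | add f g hf hg => rw [map_add]; exact hf.add_right hg
  | monomial n c =>
    rw [aeval_monomial]
    exact Commute.mul_right (show Commute a (algebraMap ℚ D c) from (Algebra.commutes c a).symm) (h.pow_right n)

theorem not_root_of_unity (qd : QuatData φ) {z : D} (hz : ∀ s, Commute (φ s) z) {p : ℕ}
    (hp : p.Prime) (hp2 : p ≠ 2) (hp5 : p ≠ 5) (hzp : z ^ p = 1) (hz1 : z ≠ 1) : False := by
  have := Fact.mk hp
  obtain ⟨x, y, A, B, hxy, hdvd⟩ := exists_split hp hp2 hp5
  set i := qd.i
  set j := qd.j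
  set r := qd.r
  have hroot : aeval z (cyclotomic p ℚ) = 0 := by
    have h := congrArg (aeval z) (cyclotomic_prime_mul_X_sub_one ℚ p)
    rw [map_mul, map_sub, map_sub, aeval_X, map_one, map_pow, aeval_X, hzp, sub_self] at h
    exact (mul_eq_zero.1 h).resolve_right (sub_ne_zero.2 hz1)
  have heq : aeval z A * aeval z A +
      ((2 * (x ^ 2 + 5 * y ^ 2) : ℤ) : D) * (aeval z B * aeval z B) = -1 := by
    obtain ⟨c, hc⟩ := hdvd
    have h := congrArg (aeval z) hc
    simp only [map_add, map_mul, map_one, aeval_C, hroot, zero_mul, map_intCast] at h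
    exact eq_neg_of_add_eq_zero_right h
  have hri : Commute r i := (qd.i_comm r qd.comm_r).symm
  have hrj : Commute r j := (qd.j_comm r qd.comm_r).symm
  have hzi := (qd.i_comm z hz).symm
  have hzj := (qd.j_comm z hz).symm
  have hzr := (qd.r_comm z hz).symm
  set a : D := (x : D) - (y : D) * r with ha
  set b : D := (x : D) + (y : D) * r with hb
  have cab : ∀ w : D, Commute r w → Commute a w ∧ Commute b w := fun w h =>
    ⟨(Int.cast_commute x w).sub_left ((Int.cast_commute y w).mul_left h),
      (Int.cast_commute x w).add_left ((Int.cast_commute y w).mul_left h)⟩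
  obtain ⟨hai, hbi⟩ := cab i hri
  obtain ⟨haj, hbj⟩ := cab j hrj
  obtain ⟨har, hbr⟩ := cab r (Commute.refl r)
  have hab : Commute a b :=
    (Int.cast_commute x a).symm.add_right ((Int.cast_commute y a).symm.mul_right har)
  have hN : a * a + b * b = ((2 * (x ^ 2 + 5 * y ^ 2) : ℤ) : D) := by
    have hyr : (y : D) * r * ((y : D) * r) = (y : D) * y * 5 := by
      rw [(Int.cast_commute y r).symm.mul_mul_mul_comm, qd.r_mul_r]
    calc a * a + b * b
        = (x : D) * x + (y : D) * r * ((y : D) * r) + ((x : D) * x + (y : D) * r * ((y : D) * r)) := by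
          rw [ha, hb]; noncomm_ring
      _ = _ := by
        rw [hyr, show (5 : D) = ((5 : ℤ) : D) by norm_num]
        simp only [← Int.cast_mul, ← Int.cast_add]
        congr 1; ring
  set w := (a + b * i) * j with hw
  have hju : j * (a + b * i) = (a - b * i) * j := by
    rw [mul_add, ← haj.eq, ← mul_assoc, ← hbj.eq, mul_assoc, qd.j_mul_i]; noncomm_ring
  have hib : b * i * a = a * (b * i) := (hab.mul_right hai).symm.eq
  have hbb : b * i * (b * i) = -(b * b) := by
    rw [hbi.symm.mul_mul_mul_comm, qd.i_mul_i]; simp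
  have hww : w * w = -((2 * (x ^ 2 + 5 * y ^ 2) : ℤ) : D) := by
    calc w * w = (a + b * i) * (j * (a + b * i)) * j := by rw [hw]; noncomm_ring
      _ = -((a + b * i) * (a - b * i)) := by rw [hju, mul_assoc, mul_assoc, qd.j_mul_j]; noncomm_ring
      _ = -(a * a + (b * i * a - a * (b * i)) - b * i * (b * i)) := by noncomm_ring
      _ = _ := by rw [hib, sub_self, hbb, ← hN]; noncomm_ring
  have hwi : w * i = -(i * w) := by
    calc w * i = -((a + b * i) * i * j) := by rw [hw, mul_assoc, qd.j_mul_i]; noncomm_ring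
      _ = -(i * (a + b * i) * j) := by rw [(hai.add_left (hbi.mul_left (Commute.refl i))).eq]
      _ = -(i * w) := by rw [hw, mul_assoc]
  have hw0 : w ≠ 0 := by
    intro h
    rw [h, zero_mul, eq_comm, neg_eq_zero, Int.cast_eq_zero] at hww
    omega
  have hzw : Commute z w :=
    (((cab z hzr.symm).1.add_left (((cab z hzr.symm).2).mul_left hzi.symm)).mul_left hzj.symm).symm
  exact no_split qd.i_mul_i hw0 hwi hww (commute_aeval hzi.symm A).symm (commute_aeval hzw.symm A).symm
    (commute_aeval hzi.symm B).symm (commute_aeval hzw.symm B).symm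
    (commute_aeval (commute_aeval (Commute.refl z) A).symm B) heq

/-- A quaternion group commuting correctly with a square root of five cannot exist. -/
theorem not_index_two {r i f : D} (hr : r * r = 5) (hi : i * i = -1) (hf : f * f = -1)
    (hfi : f * i = -(i * f)) (hri : Commute r i) (hfr : f * r = -(r * f)) : False := by
  have hf0 : f ≠ 0 := fun h => by rw [h, mul_zero] at hf; exact neg_ne_zero.2 one_ne_zero hf.symm
  refine no_split (X := r * i) (Y := 2) hi hf0 hfi (hf.trans (by simp) : f * f = -(1 : D))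
    (hri.mul_left (Commute.refl i)) ?_ (Nat.cast_commute 2 i) (Nat.cast_commute 2 f)
    (Nat.cast_commute 2 (r * i)).symm ?_
  · show r * i * f = f * (r * i)
    rw [← mul_assoc, hfr, neg_mul, mul_assoc, mul_assoc, hfi]; noncomm_ring
  · rw [hri.symm.mul_mul_mul_comm, hr, hi, one_mul]; norm_num

end Prime

theorem isSolvable_of_charP {G : Type*} [Group G] [Finite G] (φ : G →* D)
    (hφ : Function.Injective φ) (p : ℕ) [Fact p.Prime] [CharP D p] : Group.IsSolvable G := by
  let _ : Algebra (ZMod p) D := ZMod.algebra D p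
  let ev := MonoidAlgebra.lift (ZMod p) D G φ
  have : Finite (MonoidAlgebra (ZMod p) G) := Module.finite_of_finite (ZMod p)
  let K := ev.range
  have : Finite K := Finite.of_surjective _ ev.rangeRestrict_surjective
  have hK : IsField K := Finite.isDomain_to_isField K
  refine Group.isSolvable_of_comm fun a b => hφ ?_
  have ha : φ a ∈ K := ⟨MonoidAlgebra.single a 1, by simp [ev]⟩
  have hb : φ b ∈ K := ⟨MonoidAlgebra.single b 1, by simp [ev]⟩
  rw [map_mul, map_mul]
  exact congrArg Subtype.val (hK.mul_comm ⟨_, ha⟩ ⟨_, hb⟩)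

theorem sl25_no_eight : ∀ s : SL25, s ^ 8 = 1 → s ^ 4 = 1 := by decide +kernel

theorem quat_a_eq : ∀ i : ZMod (2 * 2 ^ 2),
    (QuaternionGroup.xa 0 * QuaternionGroup.xa (i + 4) : QuaternionGroup (2 ^ 2)) =
      QuaternionGroup.a i := by decide

theorem quat_anti : ∀ k : ZMod (2 * 2 ^ 2),
    (QuaternionGroup.xa k * QuaternionGroup.a 2 : QuaternionGroup (2 ^ 2)) =
      QuaternionGroup.a 4 * (QuaternionGroup.a 2 * QuaternionGroup.xa k) := by decide

theorem quat_xa_sq : ∀ k : ZMod (2 * 2 ^ 2),
    (QuaternionGroup.xa k * QuaternionGroup.xa k : QuaternionGroup (2 ^ 2)) = QuaternionGroup.a 4 := by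
  decide

theorem main_theorem {G : Type*} [Group G] [Finite G] (φ : G →* D) (hφ : Function.Injective φ)
    (hns : ¬ Group.IsSolvable G) (hG : IsFpf G) : Nonempty (G ≃* SL25) := by
  obtain ⟨p, hp⟩ := CharP.exists D
  rcases CharP.char_is_prime_or_zero D p with hpp | rfl
  · have := Fact.mk hpp
    exact absurd (isSolvable_of_charP φ hφ p) hns
  have := CharP.charP_to_charZero D
  obtain ⟨G₀, hn, hidx, S, M, hSM, hdisj, hcomm, ⟨e⟩, -, hco⟩ := exists_nonsolvable_structure' hG hns
  set ψ : SL25 →* D := φ.comp (S.subtype.comp e.symm.toMonoidHom) with hψ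
  have hψi : Function.Injective ψ := hφ.comp (S.subtype_injective.comp e.symm.injective)
  have hψ' : ∀ g : G, ∀ hg : g ∈ S, ψ (e ⟨g, hg⟩) = φ g := fun g hg => by simp [hψ]
  have hψS : ∀ s, ∃ g ∈ S, ψ s = φ g := fun s => ⟨_, (e.symm s).2, rfl⟩
  obtain ⟨qd⟩ := exists_quatData ψ hψi
  have hM : M = ⊥ := by
    by_contra hM
    have hcard : Nat.card M ≠ 1 := fun h => hM (Subgroup.eq_bot_of_card_eq M h)
    obtain ⟨p, hp, hpd⟩ := Nat.exists_prime_and_dvd hcard
    have := Fact.mk hp
    obtain ⟨m, hm⟩ := exists_prime_orderOf_dvd_card' (G := M) p hpd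
    have hp30 : p.Coprime 30 := hco.coprime_dvd_left hpd
    refine not_root_of_unity qd (z := φ m) (fun s => ?_) hp (fun h => by subst h; norm_num at hp30)
      (fun h => by subst h; norm_num at hp30) ?_ ?_
    · obtain ⟨g, hg, hs⟩ := hψS s
      rw [hs]
      exact (show Commute g (m : G) from hcomm g hg m m.2).map φ
    · rw [← map_pow, ← hm, ← Subgroup.coe_pow, pow_orderOf_eq_one, Subgroup.coe_one, map_one]
    · intro h
      have : (m : G) = 1 := hφ (h.trans φ.map_one.symm)
      rw [show m = 1 from Subtype.ext this, orderOf_one] at hm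
      exact hp.ne_one hm.symm
  subst hM
  rw [sup_bot_eq] at hSM
  subst hSM
  rcases hidx with h1 | ⟨h2, c, h, hc5, hch⟩
  · rw [Subgroup.index_eq_one] at h1
    subst h1
    exact ⟨Subgroup.topEquiv.symm.trans e⟩
  exfalso
  have hS120 : Nat.card S = 120 := card_core S e
  have hG240 : Nat.card G = 240 := by rw [← S.card_mul_index, hS120, h2]
  have hcS : c ∈ S := by
    have hsq := Subgroup.sq_mem_of_index_two h2 (c ^ 3)
    rwa [← pow_mul, show c ^ (3 * 2) = c by
      rw [show 3 * 2 = orderOf c + 1 by rw [hc5], pow_succ, pow_orderOf_eq_one, one_mul]] at hsq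
  set C := φ c with hC
  have hC5 : C ^ 5 = 1 := by rw [hC, ← map_pow, ← hc5, pow_orderOf_eq_one, map_one]
  have hC1 : C - 1 ≠ 0 := by
    rw [sub_ne_zero, hC, ← φ.map_one]
    intro e0
    rw [hφ e0, orderOf_one] at hc5
    norm_num at hc5
  have hphi5 : C ^ 4 + C ^ 3 + C ^ 2 + C + 1 = 0 := by
    have h0 : (C - 1) * (C ^ 4 + C ^ 3 + C ^ 2 + C + 1) = 0 := by
      calc (C - 1) * (C ^ 4 + C ^ 3 + C ^ 2 + C + 1) = C ^ 5 - 1 := by noncomm_ring
        _ = 0 := by rw [hC5, sub_self]
    exact (mul_eq_zero.1 h0).resolve_left hC1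
  set r := C + C ^ 4 - C ^ 2 - C ^ 3 with hr
  have hrr : r * r = 5 := by
    rw [show (5 : D) = 1 + 1 + 1 + 1 + 1 by norm_num]
    calc r * r = 1 + 1 + 1 + 1 + 1 - (C ^ 4 + C ^ 3 + C ^ 2 + C + 1)
        + (C ^ 3 - (C ^ 2 + C ^ 2) - C + (1 + 1 + 1 + 1)) * (C ^ 5 - 1) := by rw [hr]; noncomm_ring
      _ = 1 + 1 + 1 + 1 + 1 := by rw [hC5, sub_self, mul_zero, hphi5]; noncomm_ring
  have hcr : ∀ g ∈ S, Commute (φ g) r := by
    intro g hg
    have hdata : ∀ s, Commute (ψ s) qd.r := qd.comm_r
    have hCs : Commute C qd.r := by rw [hC, ← hψ' c hcS]; exact hdata _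
    have hrq : Commute r qd.r :=
      (((hCs.add_left (hCs.pow_left 4)).sub_left (hCs.pow_left 2)).sub_left (hCs.pow_left 3))
    rcases hrq.mul_self_eq_mul_self_iff.1 (hrr.trans qd.r_mul_r.symm) with h | h <;>
      rw [h, ← hψ' g hg]
    · exact hdata _
    · exact (hdata _).neg_right
  have hanti : φ h * r = -(r * φ h) := by
    have e : φ h * C = C ^ 2 * φ h := by
      rw [hC, ← map_pow, ← map_mul, ← map_mul, ← hch, inv_mul_cancel_right]
    have ek : ∀ k, φ h * C ^ k = C ^ (2 * k) * φ h := by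
      intro k
      induction k with
      | zero => simp
      | succ k ih => rw [pow_succ, ← mul_assoc, ih, mul_assoc, e, ← mul_assoc, ← pow_add]; ring_nf
    rw [hr]
    simp only [mul_add, mul_sub, ek]
    rw [e, show C ^ (2 * 2) = C ^ 4 from rfl, show C ^ (2 * 4) = C ^ 3 * C ^ 5 by rw [← pow_add],
      show C ^ (2 * 3) = C * C ^ 5 by rw [← pow_succ'], hC5]
    noncomm_ring
  have hr0 : r ≠ 0 := fun h0 => by rw [h0, mul_zero] at hrr; norm_num at hrr
  have hnot : ∀ g, φ g * r = -(r * φ g) → g ∉ S := fun g hg hgS => by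
    have h0 : (2 : D) * (r * φ g) = 0 := by
      rw [two_mul, add_eq_zero_iff_eq_neg, ← hg, (hcr g hgS).eq]
    rcases mul_eq_zero.1 h0 with h0 | h0
    · norm_num at h0
    · rcases mul_eq_zero.1 h0 with h0 | h0
      · exact hr0 h0
      · have : (φ g) * φ g⁻¹ = 1 := by rw [← map_mul, mul_inv_cancel, map_one]
        rw [h0, zero_mul] at this
        exact zero_ne_one this
  have hout : ∀ g, g ∉ S → φ g * r = -(r * φ g) := by
    intro g hg
    have hmem : g * h⁻¹ ∈ S := by
      rw [Subgroup.mul_mem_iff_of_index_two h2, inv_mem_iff]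
      exact iff_of_false hg (hnot h hanti)
    have : φ g = φ (g * h⁻¹) * φ h := by rw [← map_mul, inv_mul_cancel_right]
    rw [this, mul_assoc, hanti, mul_neg, ← mul_assoc, (hcr _ hmem).eq, mul_assoc]
  -- a Sylow 2-subgroup is a generalized quaternion group of order 16
  have := Fact.mk Nat.prime_two
  obtain ⟨P⟩ := (inferInstance : Nonempty (Sylow 2 G))
  have hP16 : Nat.card P = 16 := by
    rw [Sylow.card_eq_multiplicity, hG240]
    rw [show (240 : ℕ) = 2 ^ 4 * 15 by norm_num,
      Nat.factorization_mul_apply_of_coprime (by norm_num), Nat.factorization_pow]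
    simp [Nat.prime_two.factorization, Nat.factorization_eq_zero_of_not_dvd]
  have hPS : ¬ (P : Subgroup G) ≤ S := fun hle => by
    have := Subgroup.card_dvd_of_le hle
    rw [hS120, hP16] at this
    norm_num at this
  have hneg : ∀ a : G, a ≠ 1 → a * a = 1 → φ a = -1 := fun a ha haa => by
    refine (mul_self_eq_one_iff.1 (by rw [← map_mul, haa, map_one])).resolve_left fun h1 => ?_
    exact ha (hφ (h1.trans φ.map_one.symm))
  rcases hG.cyclic_or_quaternion (P : Subgroup G) P.isPGroup' with hcyc | ⟨m, hm, ⟨ep⟩⟩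
  · obtain ⟨u, hu⟩ := hcyc.exists_ofOrder_eq_natCard
    rw [hP16, ← Subgroup.orderOf_coe] at hu
    have h1 : ((u : G)) ^ 2 ∈ S := Subgroup.sq_mem_of_index_two h2 _
    have hw : e ⟨_, h1⟩ ^ 8 = 1 := by
      rw [← map_pow, ← e.map_one]
      exact congrArg e (Subtype.ext (by
        have h16 : (u : G) ^ 16 = 1 := by rw [← hu, pow_orderOf_eq_one]
        rw [Subgroup.coe_pow, ← pow_mul]; exact h16))
    have h3 := sl25_no_eight _ hw
    rw [← map_pow, ← e.map_one] at h3
    have h4 : (u : G) ^ 8 = 1 := by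
      have := congrArg Subtype.val (e.injective h3)
      rwa [Subgroup.coe_pow, ← pow_mul] at this
    have := orderOf_dvd_of_pow_eq_one h4
    rw [hu] at this
    norm_num at this
  have hm2 : m = 2 := by
    have := Nat.card_congr ep.toEquiv
    rw [hP16, Nat.card_eq_fintype_card, QuaternionGroup.card] at this
    exact (Nat.pow_right_injective le_rfl (by omega : 2 ^ m = 2 ^ 2))
  subst hm2
  let v : QuaternionGroup (2 ^ 2) →* G := (P : Subgroup G).subtype.comp ep.symm.toMonoidHom
  have hv : Function.Injective v := (P : Subgroup G).subtype_injective.comp ep.symm.injective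
  have hv4 : φ (v (QuaternionGroup.a 4)) = -1 := hneg _
    (fun h0 => absurd (hv (h0.trans v.map_one.symm)) (by decide))
    (by rw [← map_mul, ← v.map_one]; exact congrArg v (by decide))
  obtain ⟨k, hk⟩ : ∃ k, v (QuaternionGroup.xa k) ∉ S := by
    by_contra! hall
    apply hPS
    intro g hg
    have hgv : g = v (ep ⟨g, hg⟩) := by simp [v]
    rw [hgv]
    cases ep ⟨g, hg⟩ with
    | xa k => exact hall k
    | a i =>
      have h0 := mul_mem (hall 0) (hall (i + 4))
      rwa [← map_mul, quat_a_eq i] at h0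
  have hfi : φ (v (QuaternionGroup.xa k)) * φ (v (QuaternionGroup.a 2)) =
      -(φ (v (QuaternionGroup.a 2)) * φ (v (QuaternionGroup.xa k))) := by
    rw [← neg_one_mul, ← hv4, ← map_mul, ← map_mul, ← map_mul, ← map_mul, ← map_mul, ← map_mul]
    rw [quat_anti]
  refine not_index_two hrr ?_ ?_ hfi ?_ (hout _ hk)
  · rw [← map_mul, ← map_mul, ← hv4]; congr 2
  · rw [← map_mul, ← map_mul, ← hv4, quat_xa_sq]
  · have hsq : v (QuaternionGroup.a 2) ∈ S := by
      have := Subgroup.sq_mem_of_index_two h2 (v (QuaternionGroup.a 1))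
      rwa [← map_pow, show (QuaternionGroup.a 1 : QuaternionGroup (2 ^ 2)) ^ 2 = QuaternionGroup.a 2 by
        decide] at this
    exact (hcr _ hsq).symm

end CfsgLib.DivRing65
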